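import Cfsg.Agent.Lib.UnitRoot.PSL2

/-!
Unitary transvection groups: transfer to the generated subgroup, the final assembly.
-/

set_option autoImplicit false

namespace Cfsg.Agent.Lib.UnitRoot

open Matrix Cfsg Cfsg.Agent.Lib.RootSubgroups.SL2Pair Cfsg.Agent.Lib.RootSubgroups
open scoped MatrixGroups

section transfer

variable {X : Type*} [Group X]

lemma conjBy_subOf (A G₀ : Subgroup X) (g : G₀) :
    conjBy (A.subgroupOf G₀) g = (conjBy A (g : X)).subgroupOf G₀ := by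
  ext x
  rw [Subgroup.mem_subgroupOf, Subgroup.mem_map_equiv, Subgroup.mem_map_equiv, Subgroup.mem_subgroupOf]
  simp [MulAut.conj_symm_apply]

lemma comm_subOf {A : Subgroup X} (G₀ : Subgroup X) (h : IsMulCommutative A) :
    IsMulCommutative (A.subgroupOf G₀) := by
  refine ⟨⟨fun a b => Subtype.ext (Subtype.ext ?_)⟩⟩
  have := h.is_comm.comm ⟨a.1.1, a.2⟩ ⟨b.1.1, b.2⟩
  have h2 : a.1.1 * b.1.1 = b.1.1 * a.1.1 := congrArg Subtype.val this
  exact h2

lemma cond_subOf {A B G₀ : Subgroup X} (hB : B ≤ G₀) (h : RankOneCondition A B) :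
    RankOneCondition (A.subgroupOf G₀) (B.subgroupOf G₀) := by
  intro a ha ha1
  obtain ⟨b, hb, hb1, e⟩ := h a.1 ha (fun h' => ha1 (Subtype.ext h'))
  refine ⟨⟨b, hB hb⟩, hb, fun h' => hb1 (congrArg Subtype.val h'), ?_⟩
  rw [conjBy_subOf, conjBy_subOf]
  show (conjBy A b⁻¹).subgroupOf G₀ = (conjBy B a.1⁻¹).subgroupOf G₀
  rw [e]

lemma rankOne_subOf {A B G₀ : Subgroup X} (hA : A ≤ G₀) (hB : B ≤ G₀) (cA : IsMulCommutative A)
    (cB : IsMulCommutative B) (h : IsRankOnePair A B) :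
    IsRankOnePair (A.subgroupOf G₀) (B.subgroupOf G₀) where
  ne := by
    intro e
    apply h.ne
    have := Subgroup.subgroupOf_inj.mp e
    rwa [inf_eq_left.mpr hA, inf_eq_left.mpr hB] at this
  nilpotent_left := isNilpotent_of_comm (comm_subOf G₀ cA)
  nilpotent_right := isNilpotent_of_comm (comm_subOf G₀ cB)
  cond_left := cond_subOf hB h.cond_left
  cond_right := cond_subOf hA h.cond_right

lemma psl2_subOf {L : Type*} [Field L] {A B G₀ : Subgroup X} (hA : A ≤ G₀) (hB : B ≤ G₀)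
    (h : IsPSL2PairOver L A B) : IsPSL2PairOver L (A.subgroupOf G₀) (B.subgroupOf G₀) := by
  obtain ⟨φ, h1, h2, h3, h4⟩ := h
  have hr : ∀ x, φ x ∈ G₀ := by
    intro x
    have : φ x ∈ φ.range := ⟨x, rfl⟩
    rw [h1] at this
    exact (sup_le hA hB) this
  have hmapA : (A.subgroupOf G₀).map G₀.subtype = A := Subgroup.map_subgroupOf_eq_of_le hA
  have hmapB : (B.subgroupOf G₀).map G₀.subtype = B := Subgroup.map_subgroupOf_eq_of_le hB
  have hcomp : G₀.subtype.comp (φ.codRestrict G₀ hr) = φ := by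
    ext x
    rfl
  refine ⟨φ.codRestrict G₀ hr, ?_, ?_, ?_, ?_⟩
  · apply Subgroup.map_injective G₀.subtype_injective
    rw [Subgroup.map_sup, hmapA, hmapB, ← h1, MonoidHom.range_eq_map, MonoidHom.range_eq_map,
      Subgroup.map_map, hcomp]
  · rw [MonoidHom.ker_codRestrict]
    exact h2
  · apply Subgroup.map_injective G₀.subtype_injective
    rw [hmapA, Subgroup.map_map, hcomp, h3]
  · apply Subgroup.map_injective G₀.subtype_injective
    rw [hmapB, Subgroup.map_map, hcomp, h4]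

lemma iSup_subOf (S : Set (Subgroup X)) :
    (⨆ A ∈ (fun A : Subgroup X => A.subgroupOf (⨆ B ∈ S, B)) '' S, A) = ⊤ := by
  apply Subgroup.map_injective (⨆ B ∈ S, B).subtype_injective
  rw [iSup_image]
  simp only [Subgroup.map_iSup]
  rw [← MonoidHom.range_eq_map, Subgroup.range_subtype]
  refine iSup_congr (fun A => iSup_congr (fun hA => ?_))
  exact Subgroup.map_subgroupOf_eq_of_le (le_iSup₂_of_le A hA le_rfl)

lemma subOf_ne_bot {A G₀ : Subgroup X} (hA : A ≤ G₀) (h : A ≠ ⊥) : A.subgroupOf G₀ ≠ ⊥ := by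
  intro e
  apply h
  have := congrArg (Subgroup.map G₀.subtype) e
  rwa [Subgroup.map_subgroupOf_eq_of_le hA, Subgroup.map_bot] at this

lemma conjBy_conjBy {Y : Type*} [Group Y] (A : Subgroup Y) (g g' : Y) :
    conjBy (conjBy A g) g' = conjBy A (g' * g) := by
  rw [conjBy, conjBy, conjBy, Subgroup.map_map]
  congr 1
  ext x
  simp [mul_assoc]

lemma conj_of_rank {Y : Type*} [Group Y] {A B : Subgroup Y} (h : IsRankOnePair A B) :
    ∃ g, B = conjBy A g := by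
  obtain ⟨a, ha, ha1⟩ := exists_ne_one_left h
  obtain ⟨b, -, -, e⟩ := h.cond_left a ha ha1
  refine ⟨a * b⁻¹, ?_⟩
  rw [← conjBy_conjBy, e, conjBy_conjBy, mul_inv_cancel]
  ext x
  simp [Subgroup.mem_map_equiv]

lemma conj_of_reach {Y : Type*} [Group Y] {S : Set (Subgroup Y)} {A B : Subgroup Y}
    (h : Relation.ReflTransGen (FAdj S) A B) : ∃ g, B = conjBy A g := by
  induction h with
  | refl =>
    refine ⟨1, ?_⟩
    ext x
    simp [Subgroup.mem_map_equiv]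
  | tail _ hbc ih =>
    obtain ⟨g, hg⟩ := ih
    obtain ⟨g', hg'⟩ := conj_of_rank hbc.2.2
    refine ⟨g' * g, ?_⟩
    rw [hg', hg, conjBy_conjBy]

end transfer

variable {F : Type*} [Field F] {q : ℕ} [HermQ F q] {d : ℕ}

local notation "H" => hermForm d F q

/-- the generated subgroup -/
abbrev G0 (d : ℕ) (F : Type*) [Field F] (q : ℕ) [HermQ F q] : Subgroup (SU d F q) :=
  ⨆ B ∈ fam d F q, B

/-- the family inside the generated subgroup -/
abbrev famS (d : ℕ) (F : Type*) [Field F] (q : ℕ) [HermQ F q] : Set (Subgroup (G0 d F q)) :=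
  (fun A : Subgroup (SU d F q) => A.subgroupOf (G0 d F q)) '' fam d F q

lemma Tp_le {p : Fin d → F} (hp0 : p ≠ 0) (hp : H p p = 0) : Tp p hp ≤ G0 d F q :=
  le_iSup₂_of_le (Tp p hp) ⟨p, hp0, hp, rfl⟩ le_rfl

lemma mem_famS {p : Fin d → F} (hp0 : p ≠ 0) (hp : H p p = 0) :
    (Tp p hp).subgroupOf (G0 d F q) ∈ famS d F q := ⟨_, ⟨p, hp0, hp, rfl⟩, rfl⟩

lemma rank_S {p r : Fin d → F} (hp0 : p ≠ 0) (hr0 : r ≠ 0) (hp : H p p = 0) (hr : H r r = 0)
    (h : H p r ≠ 0) : IsRankOnePair ((Tp p hp).subgroupOf (G0 d F q)) ((Tp r hr).subgroupOf (G0 d F q)) :=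
  rankOne_subOf (Tp_le hp0 hp) (Tp_le hr0 hr) (Tp_comm p hp) (Tp_comm r hr)
    (isRankOnePair_Tp hp hr h hp0 hr0)

lemma comm_S {p r : Fin d → F} (hp0 : p ≠ 0) (hr0 : r ≠ 0) (hp : H p p = 0) (hr : H r r = 0)
    (h : H p r = 0) : ⁅(Tp p hp).subgroupOf (G0 d F q), (Tp r hr).subgroupOf (G0 d F q)⁆ = ⊥ := by
  apply commutator_eq_bot_of_commute
  intro a ha b hb
  apply Subtype.ext
  exact Tp_commute hp hr h a.1 ha b.1 hb

theorem rootSet_famS : IsRootSubgroupSet (famS d F q) where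
  commutative := by
    rintro _ ⟨_, ⟨p, hp0, hp, rfl⟩, rfl⟩
    exact comm_subOf _ (Tp_comm p hp)
  ne_bot := by
    rintro _ ⟨_, ⟨p, hp0, hp, rfl⟩, rfl⟩
    exact subOf_ne_bot (Tp_le hp0 hp) (Tp_ne_bot hp0 hp)
  generates := iSup_subOf _
  conj_mem := by
    rintro _ ⟨_, ⟨p, hp0, hp, rfl⟩, rfl⟩ g
    show conjBy ((Tp p hp).subgroupOf (G0 d F q)) g ∈ famS d F q
    rw [conjBy_subOf, conjBy_Tp]
    exact mem_famS (act_ne_zero _ hp0) _
  pair := by
    rintro _ ⟨_, ⟨p, hp0, hp, rfl⟩, rfl⟩ _ ⟨_, ⟨r, hr0, hr, rfl⟩, rfl⟩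
    by_cases h : H p r = 0
    · left
      exact comm_S hp0 hr0 hp hr h
    · right; left
      exact rank_S hp0 hr0 hp hr h

theorem degenerate_famS : IsDegenerateRootSet (famS d F q) := by
  rintro _ ⟨_, ⟨p, hp0, hp, rfl⟩, rfl⟩ _ ⟨_, ⟨r, hr0, hr, rfl⟩, rfl⟩ hc
  have hS := rootSet_famS (d := d) (F := F) (q := q)
  by_cases h : H p r = 0
  · exact hS.ne_bot _ hc.1 (comm_S hp0 hr0 hp hr h)
  · exact not_rankOne_of_commutator_mem hS (mem_famS hp0 hp) (mem_famS hr0 hr)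
      (rank_S hp0 hr0 hp hr h) hc.1

theorem connected_famS : IsConnectedFamily (FAdj (famS d F q)) (famS d F q) := by
  rintro _ ⟨_, ⟨p, hp0, hp, rfl⟩, rfl⟩ _ ⟨_, ⟨r, hr0, hr, rfl⟩, rfl⟩
  by_cases h : H p r = 0
  · obtain ⟨s, hs, hs0, h1, h2⟩ := exists_mid hp0 hr0 hp hr h
    have e1 : FAdj (famS d F q) _ _ := ⟨mem_famS hp0 hp, mem_famS hs0 hs, rank_S hp0 hs0 hp hs h1⟩
    have e2 : FAdj (famS d F q) _ _ := ⟨mem_famS hs0 hs, mem_famS hr0 hr, rank_S hs0 hr0 hs hr h2⟩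
    exact Relation.ReflTransGen.tail (Relation.ReflTransGen.single e1) e2
  · exact Relation.ReflTransGen.single ⟨mem_famS hp0 hp, mem_famS hr0 hr, rank_S hp0 hr0 hp hr h⟩

theorem kRoot_famS {L : Type*} [Field L] (ι : L →+* F) (hι : ∀ x, (ι x) ^ q = ι x)
    (hs : ∀ y : F, y ^ q = y → ∃ x, ι x = y) : IsKRootSubgroupSet L (famS d F q) := by
  refine ⟨rootSet_famS, ?_⟩
  rintro _ ⟨_, ⟨p, hp0, hp, rfl⟩, rfl⟩ _ ⟨_, ⟨r, hr0, hr, rfl⟩, rfl⟩ hpair
  by_cases h : H p r = 0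
  · exact absurd (comm_S hp0 hr0 hp hr h) (IsRankOnePair.commutator_ne_bot hpair)
  · exact psl2_subOf (Tp_le hp0 hp) (Tp_le hr0 hr) (isPSL2_Tp ι hι hs hp hr h)

lemma H_single_left {e : ℕ} (i : Fin e) (a : F) (v : Fin e → F) :
    hermForm e F q (Pi.single i a) v = a * (v i) ^ q := by
  simp only [hermForm]
  rw [Finset.sum_eq_single i]
  · simp
  · intro b _ hb
    simp [Pi.single_eq_of_ne hb]
  · simp

/-- an isotropic vector -/
lemma exists_iso (n : ℕ) : ∃ p : Fin (n + 2) → F, p ≠ 0 ∧ hermForm (n + 2) F q p p = 0 := by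
  obtain ⟨t, ht⟩ := HermQ.ex_norm (F := F) (q := q)
  set p : Fin (n + 2) → F := Pi.single 0 1 + Pi.single 1 t with hp
  have h0 : p 0 = 1 := by simp [hp]
  have h1 : p 1 = t := by simp [hp]
  refine ⟨p, ?_, ?_⟩
  · intro h
    rw [h] at h0
    exact zero_ne_one h0
  · rw [show hermForm (n + 2) F q p p = hermForm (n + 2) F q (Pi.single 0 1) p + hermForm (n + 2) F q (Pi.single 1 t) p from
      by rw [← H_add_left]]
    rw [H_single_left, H_single_left, h0, h1, ht]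
    simp

theorem conjClass_famS (n : ℕ) : IsConjClassOfSubgroups (famS (n + 2) F q) := by
  constructor
  · obtain ⟨p, hp0, hp⟩ := exists_iso (F := F) (q := q) n
    exact ⟨_, mem_famS hp0 hp⟩
  · intro A hA B hB
    exact conj_of_reach (connected_famS A hA B hB)

/-- the assembled statement for a set equal to the family -/
theorem main_of_fam {n : ℕ} {S : Set (Subgroup (SU (n + 2) F q))} (hS : S = fam (n + 2) F q)
    (hL : ∃ (L : Type) (_ : Field L) (_ : Fintype L) (ι : L →+* F), Fintype.card L = q ∧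
      (∀ x, (ι x) ^ q = ι x) ∧ ∀ y : F, y ^ q = y → ∃ x, ι x = y) :
    IsRootSubgroupClass ((fun A : Subgroup (SU (n + 2) F q) => A.subgroupOf (⨆ B ∈ S, B)) '' S) ∧
    IsDegenerateRootSet ((fun A : Subgroup (SU (n + 2) F q) => A.subgroupOf (⨆ B ∈ S, B)) '' S) ∧
    (∃ (L : Type) (_ : Field L) (_ : Fintype L), Fintype.card L = q ∧
      IsKRootSubgroupSet L ((fun A : Subgroup (SU (n + 2) F q) => A.subgroupOf (⨆ B ∈ S, B)) '' S)) ∧
    IsConnectedFamily (FAdj ((fun A : Subgroup (SU (n + 2) F q) => A.subgroupOf (⨆ B ∈ S, B)) '' S))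
      ((fun A : Subgroup (SU (n + 2) F q) => A.subgroupOf (⨆ B ∈ S, B)) '' S) := by
  subst hS
  obtain ⟨L, i1, i2, ι, hcard, hι, hs⟩ := hL
  exact ⟨⟨rootSet_famS, conjClass_famS n⟩, degenerate_famS, ⟨L, i1, i2, hcard, kRoot_famS ι hι hs⟩,
    connected_famS⟩

end Cfsg.Agent.Lib.UnitRoot
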