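import Mathlib
import Cfsg.Prelude.Def_RootSubgroups
import Cfsg.Prelude.Def_Classical
import Cfsg.Agent.Lib.RootSubgroups.SL2Pair
import Cfsg.Agent.Lib.RootSubgroups.Commutator

/-!
Unitary transvection groups: a degenerate class of root subgroups (basic theory).
-/

set_option autoImplicit false

namespace Cfsg.Agent.Lib.UnitRoot

open Matrix Cfsg Cfsg.Agent.Lib.RootSubgroups.SL2Pair
open scoped MatrixGroups

/-- the data of the involution `x ↦ x ^ q` -/
class HermQ (F : Type*) [Field F] (q : ℕ) : Prop where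
  two_le : 2 ≤ q
  add_pow : ∀ x y : F, (x + y) ^ q = x ^ q + y ^ q
  pow_pow : ∀ x : F, (x ^ q) ^ q = x
  ex_ne : ∃ x : F, x ^ q ≠ x
  ex_tr : ∃ x : F, x + x ^ q ≠ 0
  ex_norm : ∃ t : F, t * t ^ q = -1

variable {F : Type*} [Field F] {q : ℕ} [HermQ F q] {d : ℕ}

/-- the involution as a ring hom -/
def sig (F : Type*) [Field F] (q : ℕ) [HermQ F q] : F →+* F where
  toFun x := x ^ q
  map_one' := one_pow q
  map_mul' x y := mul_pow x y q
  map_zero' := zero_pow (by have := HermQ.two_le (F := F) (q := q); omega)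
  map_add' := HermQ.add_pow

lemma sig_apply (x : F) : sig F q x = x ^ q := rfl

lemma ppq (x : F) : (x ^ q) ^ q = x := HermQ.pow_pow x

lemma apq (x y : F) : (x + y) ^ q = x ^ q + y ^ q := HermQ.add_pow x y

lemma npq (x : F) : (-x) ^ q = -x ^ q := map_neg (sig F q) x

lemma zpq : (0 : F) ^ q = 0 := map_zero (sig F q)

lemma pq_eq_zero {x : F} : x ^ q = 0 ↔ x = 0 :=
  pow_eq_zero_iff (by have := HermQ.two_le (F := F) (q := q); omega)

lemma pq_ne_zero {x : F} (h : x ≠ 0) : x ^ q ≠ 0 := fun e => h (pq_eq_zero.mp e)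

/-- a nonzero trace-zero element -/
lemma ex_eps (F : Type*) [Field F] (q : ℕ) [HermQ F q] : ∃ e : F, e ≠ 0 ∧ e + e ^ q = 0 := by
  obtain ⟨x, hx⟩ := HermQ.ex_ne (F := F) (q := q)
  refine ⟨x - x ^ q, sub_ne_zero.mpr (Ne.symm hx), ?_⟩
  have : (x - x ^ q) ^ q = x ^ q - x := by
    rw [sub_eq_add_neg, apq, npq, ppq, sub_eq_add_neg]
  rw [this]; ring

local notation "H" => hermForm d F q

lemma H_add_left (u v w : Fin d → F) : H (u + v) w = H u w + H v w := by
  simp [hermForm, add_mul, Finset.sum_add_distrib]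

lemma H_smul_left (c : F) (u w : Fin d → F) : H (c • u) w = c * H u w := by
  simp [hermForm, Finset.mul_sum, mul_assoc]

lemma H_add_right (u v w : Fin d → F) : H u (v + w) = H u v + H u w := by
  simp [hermForm, apq, mul_add, Finset.sum_add_distrib]

lemma H_smul_right (c : F) (u v : Fin d → F) : H u (c • v) = c ^ q * H u v := by
  simp only [hermForm, Pi.smul_apply, smul_eq_mul, mul_pow, Finset.mul_sum]
  exact Finset.sum_congr rfl (fun _ _ => by ring)

lemma H_flip (u v : Fin d → F) : H v u = (H u v) ^ q := by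
  have : (H u v) ^ q = sig F q (H u v) := rfl
  rw [this]
  simp only [hermForm, map_sum, map_mul, sig_apply, ppq]
  exact Finset.sum_congr rfl (fun _ _ => by ring)

lemma H_fix {u : Fin d → F} : (H u u) ^ q = H u u := (H_flip u u).symm

lemma exists_ne_H {p : Fin d → F} (hp : p ≠ 0) : ∃ v, H v p ≠ 0 := by
  obtain ⟨i, hi⟩ := Function.ne_iff.mp hp
  refine ⟨Pi.single i 1, ?_⟩
  simp only [hermForm]
  rw [Finset.sum_eq_single i]
  · simpa using pq_ne_zero hi
  · intro b _ hb
    simp [Pi.single_eq_of_ne hb]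
  · simp

/-- the action -/
def act (g : SU d F q) (v : Fin d → F) : Fin d → F :=
  ((g : SpecialLinearGroup (Fin d) F) : Matrix (Fin d) (Fin d) F) *ᵥ v

lemma act_mul (g g' : SU d F q) (v : Fin d → F) : act (g * g') v = act g (act g' v) := by
  simp only [act, mulVec_mulVec]
  rfl

lemma act_one (v : Fin d → F) : act (1 : SU d F q) v = v := by
  simp only [act]
  exact one_mulVec v

lemma act_add (g : SU d F q) (u v : Fin d → F) : act g (u + v) = act g u + act g v :=
  mulVec_add _ _ _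

lemma act_smul (g : SU d F q) (c : F) (v : Fin d → F) : act g (c • v) = c • act g v :=
  mulVec_smul _ _ _

lemma act_inv_act (g : SU d F q) (v : Fin d → F) : act g⁻¹ (act g v) = v := by
  rw [← act_mul, inv_mul_cancel, act_one]

lemma act_act_inv (g : SU d F q) (v : Fin d → F) : act g (act g⁻¹ v) = v := by
  rw [← act_mul, mul_inv_cancel, act_one]

lemma su_ext {g g' : SU d F q} (h : ∀ v, act g v = act g' v) : g = g' := by
  apply Subtype.ext
  apply Subtype.ext
  apply Matrix.mulVec_injective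
  funext v
  exact h v

lemma H_act (g : SU d F q) (u v : Fin d → F) : H (act g u) (act g v) = H u v := g.2 u v

lemma H_act_inv (g : SU d F q) (u v : Fin d → F) : H (act g⁻¹ u) v = H u (act g v) := by
  rw [← H_act g (act g⁻¹ u) v, act_act_inv]

lemma act_ne_zero (g : SU d F q) {p : Fin d → F} (hp : p ≠ 0) : act g p ≠ 0 := by
  intro h
  apply hp
  have := act_inv_act g p
  rw [h] at this
  rw [← this]
  exact mulVec_zero _

/-- matrix of the transvection -/
def tvM (p : Fin d → F) (a : F) : Matrix (Fin d) (Fin d) F :=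
  1 + replicateCol Unit (a • p) * replicateRow Unit (fun j => p j ^ q)

lemma tvM_mulVec (p v : Fin d → F) (a : F) :
    (tvM (q := q) p a) *ᵥ v = v + (a * H v p) • p := by
  ext i
  simp only [tvM, Matrix.add_mulVec, Matrix.one_mulVec, Pi.add_apply, Pi.smul_apply, smul_eq_mul]
  congr 1
  simp only [Matrix.mulVec, dotProduct, Matrix.mul_apply, hermForm, Finset.univ_unique,
    Finset.sum_singleton, replicateCol_apply, replicateRow_apply, Pi.smul_apply, smul_eq_mul,
    Finset.mul_sum, Finset.sum_mul]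
  exact Finset.sum_congr rfl (fun _ _ => by ring)

/-- the transvection -/
def tv (p : Fin d → F) (hp : H p p = 0) (a : F) (ha : a + a ^ q = 0) : SU d F q :=
  ⟨⟨tvM (q := q) p a, by
    simp only [tvM]
    rw [det_one_add_replicateCol_mul_replicateRow]
    have : (fun j => p j ^ q) ⬝ᵥ (a • p) = a * H p p := by
      simp only [dotProduct, hermForm, Pi.smul_apply, smul_eq_mul, Finset.mul_sum]
      exact Finset.sum_congr rfl (fun _ _ => by ring)
    rw [this, hp]; simp⟩, by
    intro u v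
    show H ((tvM (q := q) p a) *ᵥ u) ((tvM (q := q) p a) *ᵥ v) = H u v
    rw [tvM_mulVec, tvM_mulVec]
    simp only [H_add_left, H_add_right, H_smul_left, H_smul_right, hp, mul_pow]
    rw [H_flip v p]
    generalize H u p = x
    generalize H v p = y
    generalize H u v = z
    linear_combination (x * y ^ q) * ha⟩

lemma act_tv (p : Fin d → F) (hp : H p p = 0) (a : F) (ha : a + a ^ q = 0) (v : Fin d → F) :
    act (tv p hp a ha) v = v + (a * H v p) • p := tvM_mulVec p v a

omit [HermQ F q] in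
lemma tr_zero [HermQ F q] : (0 : F) + (0 : F) ^ q = 0 := by rw [zpq (q := q)]; ring

lemma tr_add {a b : F} (ha : a + a ^ q = 0) (hb : b + b ^ q = 0) : (a + b) + (a + b) ^ q = 0 := by
  rw [apq]; linear_combination ha + hb

lemma tr_neg {a : F} (ha : a + a ^ q = 0) : (-a) + (-a) ^ q = 0 := by
  rw [npq]; linear_combination -ha

lemma tr_scale {a : F} (c : F) (ha : a + a ^ q = 0) : (a * c * c ^ q) + (a * c * c ^ q) ^ q = 0 := by
  rw [mul_pow, mul_pow, ppq]; linear_combination (c * c ^ q) * ha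

lemma tv_zero (p : Fin d → F) (hp : H p p = 0) : tv p hp 0 (tr_zero (q := q)) = 1 := by
  apply su_ext
  intro v
  rw [act_tv, act_one]
  simp

lemma tv_mul (p : Fin d → F) (hp : H p p = 0) {a b : F} (ha : a + a ^ q = 0) (hb : b + b ^ q = 0) :
    tv p hp a ha * tv p hp b hb = tv p hp (a + b) (tr_add ha hb) := by
  apply su_ext
  intro v
  rw [act_mul, act_tv, act_tv, act_tv]
  simp only [H_add_left, H_smul_left, hp]
  ext i
  simp only [Pi.add_apply, Pi.smul_apply, smul_eq_mul]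
  ring

lemma tv_inv (p : Fin d → F) (hp : H p p = 0) {a : F} (ha : a + a ^ q = 0) :
    (tv p hp a ha)⁻¹ = tv p hp (-a) (tr_neg ha) := by
  rw [inv_eq_iff_mul_eq_one, tv_mul]
  simp only [add_neg_cancel]
  exact tv_zero p hp

lemma tv_eq_one_iff {p : Fin d → F} (hp0 : p ≠ 0) (hp : H p p = 0) {a : F} (ha : a + a ^ q = 0) :
    tv p hp a ha = 1 ↔ a = 0 := by
  constructor
  · intro h
    obtain ⟨v, hv⟩ := exists_ne_H (q := q) hp0
    have h1 := act_tv p hp a ha v
    rw [h, act_one] at h1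
    rw [eq_comm, add_eq_left] at h1
    rcases smul_eq_zero.mp h1 with h2 | h2
    · exact (mul_eq_zero.mp h2).resolve_right hv
    · exact absurd h2 hp0
  · rintro rfl
    exact tv_zero p hp

/-- the root group -/
def Tp (p : Fin d → F) (hp : H p p = 0) : Subgroup (SU d F q) where
  carrier := {g | ∃ a, ∃ ha : a + a ^ q = 0, g = tv p hp a ha}
  mul_mem' := by
    rintro _ _ ⟨a, ha, rfl⟩ ⟨b, hb, rfl⟩
    exact ⟨a + b, tr_add ha hb, tv_mul p hp ha hb⟩
  one_mem' := ⟨0, tr_zero (q := q), (tv_zero p hp).symm⟩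
  inv_mem' := by
    rintro _ ⟨a, ha, rfl⟩
    exact ⟨-a, tr_neg ha, tv_inv p hp ha⟩

lemma tv_mem (p : Fin d → F) (hp : H p p = 0) {a : F} (ha : a + a ^ q = 0) : tv p hp a ha ∈ Tp p hp :=
  ⟨a, ha, rfl⟩

lemma Tp_comm (p : Fin d → F) (hp : H p p = 0) : IsMulCommutative (Tp p hp) := by
  refine ⟨⟨?_⟩⟩
  rintro ⟨_, a, ha, rfl⟩ ⟨_, b, hb, rfl⟩
  apply Subtype.ext
  show tv p hp a ha * tv p hp b hb = tv p hp b hb * tv p hp a ha
  rw [tv_mul, tv_mul]
  congr 1
  exact add_comm a b

/-- the closure of the statement is the root group -/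
lemma set_eq (p : Fin d → F) (hp0 : p ≠ 0) (hp : H p p = 0) :
    Subgroup.closure {g : SU d F q |
      (∀ v : Fin d → F, ∃ c : F, ((g : SpecialLinearGroup (Fin d) F) : Matrix (Fin d) (Fin d) F) *ᵥ v = v + c • p) ∧
      ∀ v : Fin d → F, H v p = 0 → ((g : SpecialLinearGroup (Fin d) F) : Matrix (Fin d) (Fin d) F) *ᵥ v = v} = Tp p hp := by
  apply le_antisymm
  · rw [Subgroup.closure_le]
    rintro g ⟨h1, h2⟩
    have h1' : ∀ v, ∃ c : F, act g v = v + c • p := h1
    have h2' : ∀ v, H v p = 0 → act g v = v := h2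
    obtain ⟨v0, hv0⟩ := exists_ne_H (q := q) hp0
    obtain ⟨c0, hc0⟩ := h1' v0
    set s := H v0 p with hs
    set a := c0 * s⁻¹ with ha_def
    have hact : ∀ v, act g v = v + (a * H v p) • p := by
      intro v
      set t := H v p * s⁻¹ with ht
      have hw : H (v + (-t) • v0) p = 0 := by
        rw [H_add_left, H_smul_left, ht, ← hs]
        field_simp
        ring
      have h3 := h2' _ hw
      rw [act_add, act_smul, hc0] at h3
      have h5 : act g v = v + (t * c0) • p := by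
        have h7 : act g v = (v + (-t) • v0) - (-t) • (v0 + c0 • p) := eq_sub_of_add_eq h3
        rw [h7]
        ext i
        simp only [Pi.add_apply, Pi.sub_apply, Pi.smul_apply, smul_eq_mul]
        ring
      rw [h5]
      congr 2
      rw [ha_def, ht]
      field_simp
    have hinv := H_act g v0 v0
    rw [hact v0, H_add_left, H_add_right, H_add_right, H_smul_left, H_smul_left, H_smul_right, H_smul_right, hp,
      H_flip v0 p, ← hs] at hinv
    have ha : a + a ^ q = 0 := by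
      have hs0 : s * s ^ q ≠ 0 := mul_ne_zero hv0 (pq_ne_zero hv0)
      apply (mul_eq_zero.mp _).resolve_right hs0
      simp only [mul_pow] at hinv
      linear_combination hinv
    exact ⟨a, ha, su_ext (fun v => by rw [act_tv]; exact hact v)⟩
  · rintro _ ⟨a, ha, rfl⟩
    apply Subgroup.subset_closure
    constructor
    · intro v
      exact ⟨a * H v p, act_tv p hp a ha v⟩
    · intro v hv
      have h := act_tv p hp a ha v
      rw [hv, mul_zero, zero_smul, add_zero] at h
      exact h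

lemma Tp_commute {p r : Fin d → F} (hp : H p p = 0) (hr : H r r = 0) (h : H p r = 0) :
    ∀ a ∈ Tp p hp, ∀ b ∈ Tp r hr, a * b = b * a := by
  rintro _ ⟨a, ha, rfl⟩ _ ⟨b, hb, rfl⟩
  have h' : H r p = 0 := by rw [H_flip p r, h, zpq]
  apply su_ext
  intro v
  rw [act_mul, act_mul]
  simp only [act_tv, H_add_left, H_smul_left, h, h', mul_zero, add_zero]
  abel

lemma tv_smul (p : Fin d → F) (hp : H p p = 0) (c : F) (h' : H (c • p) (c • p) = 0) {a : F}
    (ha : a + a ^ q = 0) : tv (c • p) h' a ha = tv p hp (a * c * c ^ q) (tr_scale c ha) := by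
  apply su_ext
  intro v
  rw [act_tv, act_tv, H_smul_right, smul_smul]
  congr 2
  ring

lemma H_smul_self {p : Fin d → F} (hp : H p p = 0) (c : F) : H (c • p) (c • p) = 0 := by
  rw [H_smul_left, H_smul_right, hp]; ring

lemma Tp_smul (p : Fin d → F) (hp : H p p = 0) {c : F} (hc : c ≠ 0) (h' : H (c • p) (c • p) = 0) :
    Tp (c • p) h' = Tp p hp := by
  ext t
  constructor
  · rintro ⟨a, ha, rfl⟩
    exact ⟨_, tr_scale c ha, tv_smul p hp c h' ha⟩
  · rintro ⟨a, ha, rfl⟩
    refine ⟨a * c⁻¹ * (c⁻¹) ^ q, tr_scale c⁻¹ ha, ?_⟩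
    rw [tv_smul p hp c h']
    have e : a * c⁻¹ * (c⁻¹) ^ q * c * c ^ q = a := by
      rw [inv_pow]
      have := pq_ne_zero (q := q) hc
      field_simp
    simp only [e]

lemma Tp_eq_of_smul {p r : Fin d → F} (hp : H p p = 0) (hr : H r r = 0) {c : F} (hc : c ≠ 0)
    (h : p = c • r) : Tp p hp = Tp r hr := by
  subst h
  exact Tp_smul r hr hc hp

lemma H_act_self (g : SU d F q) {p : Fin d → F} (hp : H p p = 0) : H (act g p) (act g p) = 0 := by
  rw [H_act, hp]

lemma conj_tv (g : SU d F q) (p : Fin d → F) (hp : H p p = 0) {a : F} (ha : a + a ^ q = 0) :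
    g * tv p hp a ha * g⁻¹ = tv (act g p) (H_act_self g hp) a ha := by
  apply su_ext
  intro v
  rw [act_mul, act_mul, act_tv, act_tv, act_add, act_smul, act_act_inv, H_act_inv]

lemma conjBy_Tp (g : SU d F q) (p : Fin d → F) (hp : H p p = 0) :
    conjBy (Tp p hp) g = Tp (act g p) (H_act_self g hp) := by
  ext t
  constructor
  · rintro ⟨_, ⟨a, ha, rfl⟩, rfl⟩
    exact ⟨a, ha, conj_tv g p hp ha⟩
  · rintro ⟨a, ha, rfl⟩
    exact ⟨tv p hp a ha, tv_mem p hp ha, conj_tv g p hp ha⟩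

lemma rank_cond {p r : Fin d → F} (hp : H p p = 0) (hr : H r r = 0) (hδ : H p r ≠ 0) (hr0 : r ≠ 0) :
    RankOneCondition (Tp p hp) (Tp r hr) := by
  rintro _ ⟨a, ha, rfl⟩ hx
  have ha0 : a ≠ 0 := by
    rintro rfl
    exact hx (tv_zero p hp)
  set δ := H p r with hδd
  have hrp : H r p = δ ^ q := H_flip p r
  have hδq := pq_ne_zero (q := q) hδ
  set b : F := (a * (δ * δ ^ q))⁻¹ with hb_def
  have hb0 : b ≠ 0 := inv_ne_zero (mul_ne_zero ha0 (mul_ne_zero hδ hδq))
  have hb : b + b ^ q = 0 := by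
    have e : b ^ q = -b := by
      rw [hb_def, inv_pow, mul_pow, mul_pow, ppq]
      have : a ^ q = -a := by linear_combination ha
      rw [this]
      have h1 : a * (δ * δ ^ q) ≠ 0 := mul_ne_zero ha0 (mul_ne_zero hδ hδq)
      field_simp
    rw [e]; ring
  refine ⟨tv r hr b hb, tv_mem r hr hb, ?_, ?_⟩
  · rw [Ne, tv_eq_one_iff hr0 hr hb]; exact hb0
  · rw [conjBy_Tp, conjBy_Tp]
    have e1 : act (tv r hr b hb)⁻¹ p = p + (-b * δ) • r := by
      rw [tv_inv, act_tv]
    have e2 : act (tv p hp a ha)⁻¹ r = r + (-a * δ ^ q) • p := by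
      rw [tv_inv, act_tv, hrp]
    apply Tp_eq_of_smul (H_act_self _ hp) (H_act_self _ hr) (c := -b * δ)
      (mul_ne_zero (neg_ne_zero.mpr hb0) hδ)
    rw [e1, e2, smul_add, smul_smul, add_comm p]
    have e3 : (-b * δ) * (-a * δ ^ q) = 1 := by
      rw [hb_def]
      have h1 : a * (δ * δ ^ q) ≠ 0 := mul_ne_zero ha0 (mul_ne_zero hδ hδq)
      field_simp
    rw [e3, one_smul]

lemma Tp_ne {p r : Fin d → F} (hp : H p p = 0) (hr : H r r = 0) (hδ : H p r ≠ 0) (hr0 : r ≠ 0) :
    Tp p hp ≠ Tp r hr := by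
  intro e
  obtain ⟨ε, hε0, hε⟩ := ex_eps F q
  have h1 : tv r hr ε hε ∈ Tp p hp := by rw [e]; exact tv_mem r hr hε
  obtain ⟨c, hc, hc'⟩ := h1
  have h2 := congrArg (fun t => act t p) hc'
  simp only [act_tv, hp, mul_zero, zero_smul, add_zero] at h2
  rw [add_eq_left] at h2
  rcases smul_eq_zero.mp h2 with h3 | h3
  · exact (mul_ne_zero hε0 hδ) h3
  · exact hr0 h3

theorem isRankOnePair_Tp {p r : Fin d → F} (hp : H p p = 0) (hr : H r r = 0) (hδ : H p r ≠ 0)
    (hp0 : p ≠ 0) (hr0 : r ≠ 0) : IsRankOnePair (Tp p hp) (Tp r hr) where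
  ne := Tp_ne hp hr hδ hr0
  nilpotent_left := isNilpotent_of_comm (Tp_comm p hp)
  nilpotent_right := isNilpotent_of_comm (Tp_comm r hr)
  cond_left := rank_cond hp hr hδ hr0
  cond_right := rank_cond hr hp (by rw [H_flip p r]; exact pq_ne_zero hδ) hp0

lemma Tp_ne_bot {p : Fin d → F} (hp0 : p ≠ 0) (hp : H p p = 0) : Tp p hp ≠ ⊥ := by
  intro e
  obtain ⟨ε, hε0, hε⟩ := ex_eps F q
  have h1 : tv p hp ε hε ∈ Tp p hp := tv_mem p hp hε
  rw [e, Subgroup.mem_bot, tv_eq_one_iff hp0 hp hε] at h1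
  exact hε0 h1

/-- a path through a third point -/
lemma exists_mid {p r : Fin d → F} (hp0 : p ≠ 0) (hr0 : r ≠ 0) (hp : H p p = 0) (hr : H r r = 0)
    (hpr : H p r = 0) : ∃ s, H s s = 0 ∧ s ≠ 0 ∧ H p s ≠ 0 ∧ H s r ≠ 0 := by
  obtain ⟨v1, h1⟩ := exists_ne_H (q := q) hp0
  obtain ⟨v2, h2⟩ := exists_ne_H (q := q) hr0
  have hs0 : ∃ s0, H s0 p ≠ 0 ∧ H s0 r ≠ 0 := by
    by_cases h3 : H v1 r = 0
    · by_cases h4 : H v2 p = 0
      · refine ⟨v1 + v2, ?_, ?_⟩
        · rw [H_add_left, h4, add_zero]; exact h1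
        · rw [H_add_left, h3, zero_add]; exact h2
      · exact ⟨v2, h4, h2⟩
    · exact ⟨v1, h1, h3⟩
  obtain ⟨s0, h5, h6⟩ := hs0
  obtain ⟨x0, hx0⟩ := HermQ.ex_tr (F := F) (q := q)
  set t := H s0 s0 with ht
  have htq : t ^ q = t := H_fix
  set u := x0 + x0 ^ q with hu
  have huq : u ^ q = u := by rw [hu, apq, ppq]; ring
  set μ : F := (-t) * u⁻¹ * x0 with hμ
  have hμq : μ + μ ^ q = -t := by
    rw [hμ, mul_pow, mul_pow, npq, htq, inv_pow, huq]
    field_simp
    rw [hu] at *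
    ring
  set w := H p s0 with hw
  have hw' : w = (H s0 p) ^ q := H_flip s0 p
  have hw0 : w ≠ 0 := by rw [hw']; exact pq_ne_zero h5
  set l : F := μ * w⁻¹ with hl
  have hlw : l * w = μ := by rw [hl]; field_simp
  have hlq : l ^ q * H s0 p = μ ^ q := by
    have e : w ^ q = H s0 p := by rw [hw', ppq]
    calc l ^ q * H s0 p = l ^ q * w ^ q := by rw [e]
      _ = (l * w) ^ q := (mul_pow _ _ _).symm
      _ = μ ^ q := by rw [hlw]
  refine ⟨s0 + l • p, ?_, ?_, ?_, ?_⟩
  · simp only [H_add_left, H_add_right, H_smul_left, H_smul_right, hp]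
    rw [← hw, ← ht]
    linear_combination hμq + hlq + hlw
  · intro h
    have : H (s0 + l • p) p = 0 := by
      rw [h]; simp [hermForm]
    rw [H_add_left, H_smul_left, hp, mul_zero, add_zero] at this
    exact h5 this
  · rw [H_add_right, H_smul_right, hp, mul_zero, add_zero]
    exact hw0
  · rw [H_add_left, H_smul_left, hpr, mul_zero, add_zero]
    exact h6

/-- the family -/
def fam (d : ℕ) (F : Type*) [Field F] (q : ℕ) [HermQ F q] : Set (Subgroup (SU d F q)) :=
  {A | ∃ p : Fin d → F, p ≠ 0 ∧ ∃ hp : hermForm d F q p p = 0, A = Tp p hp}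

end Cfsg.Agent.Lib.UnitRoot
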