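import Cfsg.Agent.Lib.UnitRoot.Basic

/-!
The field facts for `x ↦ x ^ q` on a field with `q ^ 2` elements.
-/

set_option autoImplicit false

namespace Cfsg.Agent.Lib.UnitRoot

section

variable (F : Type*) [Field F] [Fintype F] (q : ℕ) (hF : Fintype.card F = q ^ 2)

include hF

lemma two_le_q : 2 ≤ q := by
  have h : 1 < Fintype.card F := Fintype.one_lt_card
  rw [hF] at h
  by_contra hq
  have : q ≤ 1 := by omega
  have h2 : q ^ 2 ≤ 1 := by nlinarith
  omega

lemma pow_q_q (x : F) : (x ^ q) ^ q = x := by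
  rw [← pow_mul, ← sq, ← hF]
  exact FiniteField.pow_card x

lemma exists_char : ∃ p e : ℕ, p.Prime ∧ e ≠ 0 ∧ q = p ^ e ∧ CharP F p := by
  obtain ⟨p, hch⟩ := CharP.exists F
  obtain ⟨n, hp, hn⟩ := FiniteField.card F p
  have hq := two_le_q F q hF
  have hd : q ∣ p ^ (n : ℕ) := by
    rw [← hn, hF]
    exact dvd_pow_self q two_ne_zero
  obtain ⟨e, -, he⟩ := (Nat.dvd_prime_pow hp).1 hd
  refine ⟨p, e, hp, ?_, he, hch⟩
  rintro rfl
  rw [pow_zero] at he
  omega

lemma add_q (x y : F) : (x + y) ^ q = x ^ q + y ^ q := by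
  obtain ⟨p, e, hp, -, rfl, hch⟩ := exists_char F q hF
  haveI : Fact p.Prime := ⟨hp⟩
  exact add_pow_char_pow x y p e

/-- generator facts -/
lemma exists_gen : ∃ g : Fˣ, orderOf g = (q + 1) * (q - 1) ∧ ∀ u : Fˣ, ∃ k : ℕ, g ^ k = u := by
  obtain ⟨g, hg⟩ := IsCyclic.exists_generator (α := Fˣ)
  refine ⟨g, ?_, ?_⟩
  · rw [orderOf_eq_card_of_forall_mem_zpowers hg, Nat.card_units, Nat.card_eq_fintype_card, hF]
    have hq := two_le_q F q hF
    obtain ⟨m, rfl⟩ : ∃ m, q = m + 1 := ⟨q - 1, by omega⟩
    simp only [Nat.add_sub_cancel]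
    have : (m + 1) ^ 2 = (m + 1 + 1) * m + 1 := by ring
    omega
  · intro u
    have := (mem_powers_iff_mem_zpowers.mpr (hg u))
    exact this

lemma exists_ne_q : ∃ x : F, x ^ q ≠ x := by
  obtain ⟨g, hg, -⟩ := exists_gen F q hF
  have hq := two_le_q F q hF
  refine ⟨(g : F), fun h => ?_⟩
  have h1 : g ^ (q - 1) = 1 := by
    apply Units.ext
    have h2 : (g : F) ^ (q - 1) * g = g := by
      rw [← pow_succ, Nat.sub_add_cancel (by omega)]
      exact h
    have h3 : (g : F) ≠ 0 := g.ne_zero
    have : (g : F) ^ (q - 1) = 1 := by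
      apply mul_right_cancel₀ h3
      rw [h2, one_mul]
    simpa using this
  have h2 := orderOf_dvd_of_pow_eq_one h1
  rw [hg] at h2
  have h3 := Nat.le_of_dvd (by omega) h2
  have h4 : (q + 1) * (q - 1) ≥ 3 * (q - 1) := Nat.mul_le_mul_right _ (by omega)
  omega

lemma exists_tr : ∃ x : F, x + x ^ q ≠ 0 := by
  by_contra hcon
  push Not at hcon
  obtain ⟨y, hy⟩ := exists_ne_q F q hF
  have h1 : (1 : F) + 1 = 0 := by simpa using hcon 1
  apply hy
  have h2 := hcon y
  have h3 : y + y = 0 := by linear_combination y * h1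
  linear_combination h2 - h3

lemma exists_norm (y : F) (hy0 : y ≠ 0) (hy : y ^ q = y) : ∃ t : F, t * t ^ q = y := by
  obtain ⟨g, hg, hgen⟩ := exists_gen F q hF
  have hq := two_le_q F q hF
  obtain ⟨k, hk⟩ := hgen (Units.mk0 y hy0)
  have hk' : (g : F) ^ k = y := by
    have := congrArg (Units.val) hk
    simpa using this
  have h1 : g ^ (k * (q - 1)) = 1 := by
    apply Units.ext
    rw [pow_mul]
    have h2 : ((g ^ k) ^ (q - 1) : Fˣ).val = y ^ (q - 1) := by
      simp [hk']
    rw [h2]
    have h3 : y ^ (q - 1) * y = y := by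
      rw [← pow_succ, Nat.sub_add_cancel (by omega)]
      exact hy
    have : y ^ (q - 1) = 1 := by
      apply mul_right_cancel₀ hy0
      rw [h3, one_mul]
    simpa using this
  have h2 := orderOf_dvd_of_pow_eq_one h1
  rw [hg] at h2
  have h3 : q + 1 ∣ k := Nat.dvd_of_mul_dvd_mul_right (by omega) h2
  obtain ⟨m, rfl⟩ := h3
  refine ⟨(g : F) ^ m, ?_⟩
  rw [← hk', ← pow_mul, ← pow_add]
  congr 1
  ring

lemma neg_one_q : (-1 : F) ^ q = -1 := by
  have h := add_q F q hF (-1) 1
  have hq := two_le_q F q hF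
  rw [neg_add_cancel, zero_pow (by omega), one_pow] at h
  linear_combination -h

/-- the class -/
theorem hermQ_of_card : HermQ F q where
  two_le := two_le_q F q hF
  add_pow := add_q F q hF
  pow_pow := pow_q_q F q hF
  ex_ne := exists_ne_q F q hF
  ex_tr := exists_tr F q hF
  ex_norm := exists_norm F q hF (-1) (neg_ne_zero.mpr one_ne_zero) (neg_one_q F q hF)

/-- the fixed subfield -/
def fixK : Subfield F where
  carrier := {x | x ^ q = x}
  mul_mem' := by
    intro a b ha hb
    simp only [Set.mem_ofPred_eq] at *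
    rw [mul_pow, ha, hb]
  one_mem' := by simp
  add_mem' := by
    intro a b ha hb
    simp only [Set.mem_ofPred_eq] at *
    rw [add_q F q hF, ha, hb]
  zero_mem' := by
    have hq := two_le_q F q hF
    simp only [Set.mem_ofPred_eq]
    exact zero_pow (by omega)
  neg_mem' := by
    intro a ha
    simp only [Set.mem_ofPred_eq] at *
    have h := add_q F q hF (-a) a
    have hq := two_le_q F q hF
    rw [neg_add_cancel, zero_pow (by omega), ha] at h
    linear_combination -h
  inv_mem' := by
    intro a ha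
    simp only [Set.mem_ofPred_eq] at *
    rw [inv_pow, ha]

lemma card_fixK : Nat.card (fixK F q hF) = q := by
  have hq := two_le_q F q hF
  have inj : Function.Injective (Units.map ((fixK F q hF).subtype : fixK F q hF →* F)) :=
    Units.map_injective (fixK F q hF).subtype_injective
  have e := MonoidHom.ofInjective inj
  have h1 : Nat.card (fixK F q hF)ˣ = Nat.card (Units.map ((fixK F q hF).subtype : fixK F q hF →* F)).range :=
    Nat.card_congr e.toEquiv
  have h2 : (Units.map ((fixK F q hF).subtype : fixK F q hF →* F)).range = (powMonoidHom (q - 1) : Fˣ →* Fˣ).ker := by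
    ext u
    rw [MonoidHom.mem_ker, MonoidHom.mem_range]
    constructor
    · rintro ⟨v, rfl⟩
      apply Units.ext
      have hv : ((v : fixK F q hF) : F) ^ q = (v : fixK F q hF) := (v : fixK F q hF).2
      have h0 : ((v : fixK F q hF) : F) ≠ 0 := by
        simpa using (v.ne_zero)
      have h3 : ((v : fixK F q hF) : F) ^ (q - 1) * (v : fixK F q hF) = (v : fixK F q hF) := by
        rw [← pow_succ, Nat.sub_add_cancel (by omega)]
        exact hv
      have h4 : ((v : fixK F q hF) : F) ^ (q - 1) = 1 := by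
        apply mul_right_cancel₀ h0
        rw [h3, one_mul]
      simpa using h4
    · intro hu
      have h3 : (u : F) ^ (q - 1) = 1 := by
        have := congrArg Units.val hu
        simpa using this
      have h4 : (u : F) ^ q = u := by
        calc (u : F) ^ q = (u : F) ^ ((q - 1) + 1) := by rw [Nat.sub_add_cancel (by omega)]
          _ = (u : F) ^ (q - 1) * u := pow_succ _ _
          _ = u := by rw [h3, one_mul]
      refine ⟨Units.mk0 ⟨(u : F), h4⟩ (by
        intro h
        exact u.ne_zero (congrArg Subtype.val h)), ?_⟩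
      apply Units.ext
      rfl
  rw [h2, IsCyclic.card_powMonoidHom_ker, Nat.card_units, Nat.card_units,
    Nat.card_eq_fintype_card (α := F), hF] at h1
  have hg : (q ^ 2 - 1).gcd (q - 1) = q - 1 := by
    apply Nat.gcd_eq_right
    obtain ⟨m, rfl⟩ : ∃ m, q = m + 1 := ⟨q - 1, by omega⟩
    simp only [Nat.add_sub_cancel]
    refine ⟨m + 2, ?_⟩
    have : (m + 1) ^ 2 = m * (m + 2) + 1 := by ring
    omega
  rw [hg] at h1
  have hpos : 0 < Nat.card (fixK F q hF) := Nat.card_pos
  omega

/-- a field in `Type` for the fixed field -/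
theorem exists_field : ∃ (L : Type) (_ : Field L) (_ : Fintype L) (ι : L →+* F), Fintype.card L = q ∧
    (∀ x, (ι x) ^ q = ι x) ∧ ∀ y : F, y ^ q = y → ∃ x, ι x = y := by
  obtain ⟨p, e, hp, he, hqe, hch⟩ := exists_char F q hF
  haveI : Fact p.Prime := ⟨hp⟩
  letI fL : Fintype (GaloisField p e) := Fintype.ofFinite _
  letI fK : Fintype (fixK F q hF) := Fintype.ofFinite _
  have hc1 : Fintype.card (GaloisField p e) = q := by
    rw [← Nat.card_eq_fintype_card, GaloisField.card p e he, hqe]
  have hc2 : Fintype.card (GaloisField p e) = Fintype.card (fixK F q hF) := by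
    rw [hc1, ← Nat.card_eq_fintype_card, card_fixK]
  let φ : GaloisField p e ≃+* fixK F q hF := FiniteField.ringEquivOfCardEq hc2
  refine ⟨GaloisField p e, inferInstance, fL, ((fixK F q hF).subtype).comp φ.toRingHom, hc1, ?_, ?_⟩
  · intro x
    exact (φ x).2
  · intro y hy
    refine ⟨φ.symm ⟨y, hy⟩, ?_⟩
    simp

end

end Cfsg.Agent.Lib.UnitRoot
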