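import Cfsg.Agent.Lib.UnitRoot.Basic

/-!
Hyperbolic pairs give homomorphisms from `SL₂(L)`, `L` the fixed field of the involution.
-/

set_option autoImplicit false

namespace Cfsg.Agent.Lib.UnitRoot

open Matrix Cfsg Cfsg.Agent.Lib.RootSubgroups.SL2Pair
open scoped MatrixGroups

variable {F : Type*} [Field F] {q : ℕ} [HermQ F q] {d : ℕ}

local notation "H" => hermForm d F q

/-- the data -/
structure Datum (d : ℕ) (F : Type*) [Field F] (q : ℕ) [HermQ F q] (L : Type*) [Field L] where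
  p : Fin d → F
  r : Fin d → F
  hp : hermForm d F q p p = 0
  hr : hermForm d F q r r = 0
  h1 : hermForm d F q p r = 1
  ε : F
  hε0 : ε ≠ 0
  hε : ε + ε ^ q = 0
  ι : L →+* F
  hι : ∀ x, (ι x) ^ q = ι x
  hs : ∀ y : F, y ^ q = y → ∃ x, ι x = y

variable {L : Type*} [Field L] (D : Datum d F q L)

/-- columns -/
def UU : Matrix (Fin d) (Fin 2) F := Matrix.of fun i j => if j = 0 then D.p i else D.r i

/-- rows -/
def WW : Matrix (Fin 2) (Fin d) F := Matrix.of fun i j => if i = 0 then (D.r j) ^ q else (D.p j) ^ q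

lemma WW_mulVec (x : Fin d → F) : (WW D *ᵥ x) 0 = H x D.r ∧ (WW D *ᵥ x) 1 = H x D.p := by
  constructor
  · simp only [Matrix.mulVec, dotProduct, WW, Matrix.of_apply, hermForm, if_true]
    exact Finset.sum_congr rfl (fun _ _ => mul_comm _ _)
  · simp only [Matrix.mulVec, dotProduct, WW, Matrix.of_apply, hermForm, one_ne_zero, if_false]
    exact Finset.sum_congr rfl (fun _ _ => mul_comm _ _)

lemma UU_mulVec (y : Fin 2 → F) : UU D *ᵥ y = y 0 • D.p + y 1 • D.r := by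
  ext i
  simp [Matrix.mulVec, dotProduct, UU, Fin.sum_univ_two, mul_comm]

lemma WW_mul_UU : WW D * UU D = 1 := by
  have e1 := WW_mulVec D D.p
  have e2 := WW_mulVec D D.r
  rw [D.h1, D.hp] at e1
  rw [D.hr, H_flip D.p D.r, D.h1, one_pow] at e2
  have c0 : ∀ i, (WW D * UU D) i 0 = (WW D *ᵥ D.p) i := by
    intro i
    simp [Matrix.mul_apply, Matrix.mulVec, dotProduct, UU]
  have c1 : ∀ i, (WW D * UU D) i 1 = (WW D *ᵥ D.r) i := by
    intro i
    simp [Matrix.mul_apply, Matrix.mulVec, dotProduct, UU]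
  ext i j
  fin_cases i <;> fin_cases j
  · show (WW D * UU D) 0 0 = (1 : Matrix (Fin 2) (Fin 2) F) 0 0
    rw [c0, Matrix.one_apply_eq]; exact e1.1
  · show (WW D * UU D) 0 1 = (1 : Matrix (Fin 2) (Fin 2) F) 0 1
    rw [c1, Matrix.one_apply_ne (by simp)]; exact e2.1
  · show (WW D * UU D) 1 0 = (1 : Matrix (Fin 2) (Fin 2) F) 1 0
    rw [c0, Matrix.one_apply_ne (by simp)]; exact e1.2
  · show (WW D * UU D) 1 1 = (1 : Matrix (Fin 2) (Fin 2) F) 1 1
    rw [c1, Matrix.one_apply_eq]; exact e2.2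

lemma psi_aux {ι : Type*} [Fintype ι] [DecidableEq ι] (U : Matrix ι (Fin 2) F) (W : Matrix (Fin 2) ι F)
    (hFU : W * U = 1) (M N : Matrix (Fin 2) (Fin 2) F) :
    1 + U * (M * N - 1) * W = (1 + U * (M - 1) * W) * (1 + U * (N - 1) * W) := by
  set X := M - 1 with hX
  set Y := N - 1 with hY
  have hM : M = 1 + X := by rw [hX]; abel
  have hN : N = 1 + Y := by rw [hY]; abel
  have e : M * N - 1 = X + Y + X * Y := by
    rw [hM, hN]; noncomm_ring
  have e2 : U * X * W * (U * Y * W) = U * (X * Y) * W := by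
    calc U * X * W * (U * Y * W) = U * X * (W * U) * Y * W := by simp only [Matrix.mul_assoc]
      _ = U * (X * Y) * W := by rw [hFU, Matrix.mul_one]; simp only [Matrix.mul_assoc]
  rw [e, Matrix.mul_add, Matrix.mul_add, Matrix.add_mul, Matrix.add_mul, Matrix.mul_add, Matrix.mul_one,
    Matrix.add_mul, Matrix.one_mul, e2]
  abel

lemma psiMat_mulVec (M : Matrix (Fin 2) (Fin 2) F) (x : Fin d → F) :
    (1 + UU D * (M - 1) * WW D) *ᵥ x =
      x + ((M 0 0 - 1) * H x D.r + M 0 1 * H x D.p) • D.p +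
        (M 1 0 * H x D.r + (M 1 1 - 1) * H x D.p) • D.r := by
  obtain ⟨e0, e1⟩ := WW_mulVec D x
  rw [Matrix.add_mulVec, Matrix.one_mulVec, ← Matrix.mulVec_mulVec, ← Matrix.mulVec_mulVec, UU_mulVec]
  have g0 : ∀ y : Fin 2 → F, ((M - 1) *ᵥ y) 0 = (M 0 0 - 1) * y 0 + M 0 1 * y 1 := by
    intro y
    simp [Matrix.mulVec, dotProduct, Fin.sum_univ_two, Matrix.sub_apply]
  have g1 : ∀ y : Fin 2 → F, ((M - 1) *ᵥ y) 1 = M 1 0 * y 0 + (M 1 1 - 1) * y 1 := by
    intro y
    simp [Matrix.mulVec, dotProduct, Fin.sum_univ_two, Matrix.sub_apply]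
  have c0 : ((M - 1) *ᵥ (WW D *ᵥ x)) 0 = (M 0 0 - 1) * H x D.r + M 0 1 * H x D.p := by
    rw [g0, e0, e1]
  have c1 : ((M - 1) *ᵥ (WW D *ᵥ x)) 1 = M 1 0 * H x D.r + (M 1 1 - 1) * H x D.p := by
    rw [g1, e0, e1]
  rw [c0, c1, add_assoc]

/-- twisted matrix over `F` -/
def Mp (M : SL(2, L)) : Matrix (Fin 2) (Fin 2) F :=
  !![D.ι ((M : Matrix (Fin 2) (Fin 2) L) 0 0), D.ι ((M : Matrix (Fin 2) (Fin 2) L) 0 1) * D.ε;
     D.ι ((M : Matrix (Fin 2) (Fin 2) L) 1 0) * D.ε⁻¹, D.ι ((M : Matrix (Fin 2) (Fin 2) L) 1 1)]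

lemma Mp_mul (M N : SL(2, L)) : Mp D (M * N) = Mp D M * Mp D N := by
  have h := D.hε0
  ext i j
  have e : ((M * N : SL(2, L)) : Matrix (Fin 2) (Fin 2) L) =
      (M : Matrix (Fin 2) (Fin 2) L) * (N : Matrix (Fin 2) (Fin 2) L) := rfl
  fin_cases i <;> fin_cases j <;>
    simp [Mp, Matrix.mul_apply, Fin.sum_univ_two, e, map_add, map_mul] <;> field_simp

lemma Mp_one : Mp D (1 : SL(2, L)) = 1 := by
  have h := D.hε0
  ext i j
  fin_cases i <;> fin_cases j <;> simp [Mp]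

lemma Mp_det (M : SL(2, L)) : (Mp D M).det = 1 := by
  have hM := M.2
  rw [Matrix.det_fin_two] at hM
  rw [Matrix.det_fin_two]
  have e := congrArg D.ι hM
  simp only [map_sub, map_mul, map_one] at e
  simp only [Mp, Matrix.of_apply, Matrix.cons_val', Matrix.cons_val_zero, Matrix.cons_val_one,
    Matrix.cons_val_fin_one]
  have h := D.hε0
  rw [← e]
  field_simp

lemma sig_iota (x : L) : (D.ι x) ^ q = D.ι x := D.hι x

lemma eps_q : D.ε ^ q = -D.ε := by linear_combination D.hε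

lemma epsinv_q : (D.ε⁻¹) ^ q = -D.ε⁻¹ := by
  rw [inv_pow, eps_q, inv_neg]

/-- expansion of the form on the line -/
lemma H_line (x y : Fin d → F) (A1 B1 A2 B2 : F) :
    H (x + A1 • D.p + B1 • D.r) (y + A2 • D.p + B2 • D.r) =
      H x y + A2 ^ q * H x D.p + B2 ^ q * H x D.r + A1 * (H y D.p) ^ q + B1 * (H y D.r) ^ q +
        A1 * B2 ^ q + B1 * A2 ^ q := by
  have hrp : H D.r D.p = 1 := by rw [H_flip D.p D.r, D.h1, one_pow]
  have h3 : H D.p y = (H y D.p) ^ q := H_flip y D.p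
  have h4 : H D.r y = (H y D.r) ^ q := H_flip y D.r
  simp only [H_add_left, H_add_right, H_smul_left, H_smul_right, D.hp, D.hr, D.h1, hrp, h3, h4]
  ring

lemma psiMat_pres (M : SL(2, L)) (x y : Fin d → F) :
    H ((1 + UU D * (Mp D M - 1) * WW D) *ᵥ x) ((1 + UU D * (Mp D M - 1) * WW D) *ᵥ y) = H x y := by
  rw [psiMat_mulVec, psiMat_mulVec, H_line]
  have hM := M.2
  rw [Matrix.det_fin_two] at hM
  have e := congrArg D.ι hM
  simp only [map_sub, map_mul, map_one] at e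
  simp only [Mp, Matrix.of_apply, Matrix.cons_val', Matrix.cons_val_zero, Matrix.cons_val_one,
    Matrix.cons_val_fin_one]
  have ha := sig_iota D ((M : Matrix (Fin 2) (Fin 2) L) 0 0)
  have hb := sig_iota D ((M : Matrix (Fin 2) (Fin 2) L) 0 1)
  have hc := sig_iota D ((M : Matrix (Fin 2) (Fin 2) L) 1 0)
  have hd := sig_iota D ((M : Matrix (Fin 2) (Fin 2) L) 1 1)
  generalize D.ι ((M : Matrix (Fin 2) (Fin 2) L) 0 0) = a at *
  generalize D.ι ((M : Matrix (Fin 2) (Fin 2) L) 0 1) = b at *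
  generalize D.ι ((M : Matrix (Fin 2) (Fin 2) L) 1 0) = c at *
  generalize D.ι ((M : Matrix (Fin 2) (Fin 2) L) 1 1) = g at *
  have heq := eps_q D
  have hiq := epsinv_q D
  have hei : D.ε * D.ε⁻¹ = 1 := mul_inv_cancel₀ D.hε0
  generalize D.ε⁻¹ = i at *
  generalize D.ε = ε at *
  generalize H x D.r = x1 at *
  generalize H x D.p = y1 at *
  generalize hx2 : H y D.r = x2 at *
  generalize hy2 : H y D.p = y2 at *
  generalize H x y = z at *
  have hA : ((a - 1) * x2 + b * ε * y2) ^ q = (a - 1) * x2 ^ q + b * (-ε) * y2 ^ q := by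
    show sig F q _ = _
    simp only [map_add, map_sub, map_mul, map_one, sig_apply, ha, hb, heq]
  have hB : (c * i * x2 + (g - 1) * y2) ^ q = c * (-i) * x2 ^ q + (g - 1) * y2 ^ q := by
    show sig F q _ = _
    simp only [map_add, map_sub, map_mul, map_one, sig_apply, hc, hd, hiq]
  rw [hA, hB]
  linear_combination (x1 * y2 ^ q + y1 * x2 ^ q) * e - (b * c * (x1 * y2 ^ q + y1 * x2 ^ q)) * hei

lemma psiMat_det (M : SL(2, L)) : (1 + UU D * (Mp D M - 1) * WW D).det = 1 := by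
  rw [Matrix.det_one_add_mul_comm, ← Matrix.mul_assoc, WW_mul_UU, Matrix.one_mul]
  simp [Mp_det]

/-- the homomorphism -/
def psi : SL(2, L) →* SU d F q :=
  MonoidHom.mk' (fun M => ⟨⟨1 + UU D * (Mp D M - 1) * WW D, psiMat_det D M⟩, psiMat_pres D M⟩) (by
    intro M N
    apply Subtype.ext
    apply Subtype.ext
    show 1 + UU D * (Mp D (M * N) - 1) * WW D = (1 + UU D * (Mp D M - 1) * WW D) * (1 + UU D * (Mp D N - 1) * WW D)
    rw [Mp_mul]
    exact psi_aux (UU D) (WW D) (WW_mul_UU D) _ _)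

lemma act_psi (M : SL(2, L)) (x : Fin d → F) : act (psi D M) x = (1 + UU D * (Mp D M - 1) * WW D) *ᵥ x := rfl

lemma psi_injective : Function.Injective (psi D) := by
  rw [injective_iff_map_eq_one]
  intro M hM
  have h1 : 1 + UU D * (Mp D M - 1) * WW D = 1 :=
    congrArg (fun g : SU d F q => ((g : SpecialLinearGroup (Fin d) F) : Matrix (Fin d) (Fin d) F)) hM
  rw [add_eq_left] at h1
  have h2 : WW D * (UU D * (Mp D M - 1) * WW D) * UU D = 0 := by
    rw [h1]; simp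
  have h3 : WW D * (UU D * (Mp D M - 1) * WW D) * UU D =
      (WW D * UU D) * (Mp D M - 1) * (WW D * UU D) := by
    simp only [Matrix.mul_assoc]
  rw [h3, WW_mul_UU, Matrix.one_mul, Matrix.mul_one, sub_eq_zero] at h2
  have hι := D.ι.injective
  have h0 := D.hε0
  have e00 := congrFun (congrFun h2 0) 0
  have e01 := congrFun (congrFun h2 0) 1
  have e10 := congrFun (congrFun h2 1) 0
  have e11 := congrFun (congrFun h2 1) 1
  simp only [Mp, Matrix.of_apply, Matrix.cons_val', Matrix.cons_val_zero, Matrix.cons_val_one,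
    Matrix.cons_val_fin_one, Matrix.one_apply_eq] at e00 e01 e10 e11
  rw [Matrix.one_apply_ne (by simp)] at e01 e10
  apply Cfsg.Agent.Lib.KS2.SL2.ext4
  · exact hι (by simpa using e00)
  · have := (mul_eq_zero.mp e01).resolve_right h0
    exact hι (by simpa using this)
  · have := (mul_eq_zero.mp e10).resolve_right (inv_ne_zero h0)
    exact hι (by simpa using this)
  · exact hι (by simpa using e11)

lemma tr_up (t : L) : (D.ι t * D.ε) + (D.ι t * D.ε) ^ q = 0 := by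
  rw [mul_pow, sig_iota, eps_q]; ring

lemma tr_lo (t : L) : (D.ι t * D.ε⁻¹) + (D.ι t * D.ε⁻¹) ^ q = 0 := by
  rw [mul_pow, sig_iota, epsinv_q]; ring

lemma psi_up (t : L) : psi D (up t) = tv D.p D.hp (D.ι t * D.ε) (tr_up D t) := by
  apply su_ext
  intro x
  rw [act_psi, act_tv, psiMat_mulVec]
  simp [Mp, Matrix.one_apply_ne]

lemma psi_lo (t : L) : psi D (lo t) = tv D.r D.hr (D.ι t * D.ε⁻¹) (tr_lo D t) := by
  apply su_ext
  intro x
  rw [act_psi, act_tv, psiMat_mulVec]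
  simp [Mp, Matrix.one_apply_ne]

theorem isPSL2_datum : IsPSL2PairOver L (Tp D.p D.hp) (Tp D.r D.hr) := by
  have hU : (upperUnipotentSL2 L).map (psi D) = Tp D.p D.hp := by
    ext x
    constructor
    · rintro ⟨g, hg, rfl⟩
      obtain ⟨t, rfl⟩ := mem_upper_iff.mp hg
      rw [psi_up]
      exact tv_mem _ _ _
    · rintro ⟨a, ha, rfl⟩
      have h0 := D.hε0
      have hq : (a * D.ε⁻¹) ^ q = a * D.ε⁻¹ := by
        rw [mul_pow, epsinv_q]
        have : a ^ q = -a := by linear_combination ha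
        rw [this]; ring
      obtain ⟨t, ht⟩ := D.hs _ hq
      refine ⟨up t, mem_upper_iff.mpr ⟨_, rfl⟩, ?_⟩
      rw [psi_up]
      have e : D.ι t * D.ε = a := by rw [ht]; field_simp
      simp only [e]
  have hL : (lowerUnipotentSL2 L).map (psi D) = Tp D.r D.hr := by
    ext x
    constructor
    · rintro ⟨g, hg, rfl⟩
      obtain ⟨t, rfl⟩ := mem_lower_iff.mp hg
      rw [psi_lo]
      exact tv_mem _ _ _
    · rintro ⟨a, ha, rfl⟩
      have h0 := D.hε0
      have hq : (a * D.ε) ^ q = a * D.ε := by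
        rw [mul_pow, eps_q]
        have : a ^ q = -a := by linear_combination ha
        rw [this]; ring
      obtain ⟨t, ht⟩ := D.hs _ hq
      refine ⟨lo t, mem_lower_iff.mpr ⟨_, rfl⟩, ?_⟩
      rw [psi_lo]
      have e : D.ι t * D.ε⁻¹ = a := by rw [ht]; field_simp
      simp only [e]
  refine ⟨psi D, ?_, ?_, hU, hL⟩
  · rw [← hU, ← hL, MonoidHom.range_eq_map, ← sup_eq_top, Subgroup.map_sup, sup_comm]
  · rw [(MonoidHom.ker_eq_bot_iff _).mpr (psi_injective D)]
    exact bot_le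

/-- general hyperbolic pair -/
theorem isPSL2_Tp {L : Type*} [Field L] (ι : L →+* F) (hι : ∀ x, (ι x) ^ q = ι x)
    (hs : ∀ y : F, y ^ q = y → ∃ x, ι x = y) {p r : Fin d → F} (hp : H p p = 0) (hr : H r r = 0)
    (hδ : H p r ≠ 0) : IsPSL2PairOver L (Tp p hp) (Tp r hr) := by
  obtain ⟨ε, hε0, hε⟩ := ex_eps F q
  set c : F := ((H p r)⁻¹) ^ q with hc
  have hc0 : c ≠ 0 := pq_ne_zero (inv_ne_zero hδ)
  have h1 : H p (c • r) = 1 := by
    rw [H_smul_right, hc, ppq]
    exact inv_mul_cancel₀ hδ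
  have h2 := isPSL2_datum (⟨p, c • r, hp, H_smul_self hr c, h1, ε, hε0, hε, ι, hι, hs⟩ : Datum d F q L)
  have h3 : Tp (c • r) (H_smul_self hr c) = Tp r hr := Tp_smul r hr hc0 _
  rw [← h3]
  exact h2

end Cfsg.Agent.Lib.UnitRoot
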